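import Cfsg.Prelude.Def_LieExceptional

/-!
Basic theory of (B, N)-pairs: Bruhat decomposition, the exchange property for representatives,
parabolic subgroups, and the simplicity criterion.
-/

set_option autoImplicit false

namespace Cfsg.Agent.BN

open DoubleCoset
open scoped Pointwise

variable {G : Type*} [Group G] (P : Cfsg.BNPair G)

/-- The torus `B ⊓ N`. -/
abbrev torus : Subgroup G := P.B ⊓ P.N

/-- The double coset of `n`. -/
abbrev cell (n : G) : Set G := DoubleCoset.doubleCoset n (P.B : Set G) P.B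

theorem mem_cell {n g : G} : g ∈ cell P n ↔ ∃ x ∈ P.B, ∃ y ∈ P.B, g = x * n * y :=
  DoubleCoset.mem_doubleCoset

theorem self_mem_cell (n : G) : n ∈ cell P n := DoubleCoset.mem_doubleCoset_self _ _ n

theorem cell_eq {n g : G} (h : g ∈ cell P n) : cell P g = cell P n :=
  DoubleCoset.doubleCoset_eq_of_mem h

theorem mul_mem_cell {n g x y : G} (hg : g ∈ cell P n) (hx : x ∈ P.B) (hy : y ∈ P.B) :
    x * g * y ∈ cell P n := by
  obtain ⟨a, ha, b, hb, rfl⟩ := (mem_cell P).1 hg
  exact (mem_cell P).2 ⟨x * a, mul_mem hx ha, b * y, mul_mem hb hy, by group⟩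

theorem cell_mul_right {n h : G} (hh : h ∈ P.B) : cell P (n * h) = cell P n :=
  cell_eq P ((mem_cell P).2 ⟨1, one_mem _, h, hh, by group⟩)

theorem S_mem_N {s : G} (hs : s ∈ P.S) : s ∈ P.N := P.subset hs

theorem sq_mem_torus {s : G} (hs : s ∈ P.S) : s * s ∈ torus P :=
  Subgroup.mem_inf.2 ⟨P.sq_mem s hs, mul_mem (S_mem_N P hs) (S_mem_N P hs)⟩

theorem torus_conj {n t : G} (hn : n ∈ P.N) (ht : t ∈ torus P) : n * t * n⁻¹ ∈ torus P :=
  Subgroup.mem_inf.2 ⟨P.conj_mem n hn t ht,
    mul_mem (mul_mem hn (Subgroup.mem_inf.1 ht).2) (inv_mem hn)⟩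

theorem torus_conj' {n t : G} (hn : n ∈ P.N) (ht : t ∈ torus P) : n⁻¹ * t * n ∈ torus P := by
  simpa using torus_conj P (inv_mem hn) ht

theorem inv_S_eq {s : G} (hs : s ∈ P.S) : ∃ h ∈ torus P, s⁻¹ = h * s :=
  ⟨(s * s)⁻¹, inv_mem (sq_mem_torus P hs), by group⟩

theorem inv_S_eq' {s : G} (hs : s ∈ P.S) : ∃ h ∈ torus P, s⁻¹ = s * h :=
  ⟨(s * s)⁻¹, inv_mem (sq_mem_torus P hs), by group⟩

theorem left_step {s n x : G} (hs : s ∈ P.S) (hn : n ∈ P.N) (hx : x ∈ cell P n) :
    s * x ∈ cell P (s * n) ∨ s * x ∈ cell P n := by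
  obtain ⟨a, ha, b, hb, rfl⟩ := (mem_cell P).1 hx
  have : s * (a * n * b) = 1 * (s * a * n) * b := by group
  rcases P.mul_mem_union s hs n hn a ha with h | h
  · exact Or.inl (this ▸ mul_mem_cell P h (one_mem _) hb)
  · exact Or.inr (this ▸ mul_mem_cell P h (one_mem _) hb)

theorem right_step {s n x : G} (hs : s ∈ P.S) (hn : n ∈ P.N) (hx : x ∈ cell P n) :
    x * s ∈ cell P (n * s) ∨ x * s ∈ cell P n := by
  obtain ⟨a, ha, b, hb, rfl⟩ := (mem_cell P).1 hx
  obtain ⟨h, hh, hh'⟩ := inv_S_eq P hs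
  have key : (a * n * b * s)⁻¹ = h * (s * (b⁻¹ * n⁻¹ * a⁻¹)) := by
    rw [mul_inv_rev, mul_inv_rev, mul_inv_rev, hh']; group
  have hx' : b⁻¹ * n⁻¹ * a⁻¹ ∈ cell P n⁻¹ :=
    (mem_cell P).2 ⟨_, inv_mem hb, _, inv_mem ha, rfl⟩
  rcases left_step P hs (inv_mem hn) hx' with hc | hc
  · left
    obtain ⟨u, hu, v, hv, huv⟩ := (mem_cell P).1 hc
    obtain ⟨k, hk, hk'⟩ := inv_S_eq' P hs
    refine (mem_cell P).2 ⟨v⁻¹, inv_mem hv, k * u⁻¹ * h⁻¹,
      mul_mem (mul_mem (Subgroup.mem_inf.1 hk).1 (inv_mem hu)) (inv_mem (Subgroup.mem_inf.1 hh).1), ?_⟩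
    rw [← inv_inj, key, huv, mul_inv_rev, mul_inv_rev, mul_inv_rev, mul_inv_rev, mul_inv_rev]
    have : s⁻¹ = s * k := hk'
    have hk2 : k⁻¹ * s⁻¹ = s := by
      have := congrArg (fun z => z⁻¹) this
      simpa [mul_inv_rev] using this.symm
    simp only [inv_inv, ← mul_assoc]
    rw [mul_assoc (h * u) k⁻¹ s⁻¹, hk2]
  · right
    obtain ⟨u, hu, v, hv, huv⟩ := (mem_cell P).1 hc
    refine (mem_cell P).2 ⟨v⁻¹, inv_mem hv, u⁻¹ * h⁻¹,
      mul_mem (inv_mem hu) (inv_mem (Subgroup.mem_inf.1 hh).1), ?_⟩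
    rw [← inv_inj, key, huv]; group

/-! ### Bruhat decomposition of parabolic subgroups -/

theorem closure_le_N {J : Set G} (hJ : J ⊆ P.S) : Subgroup.closure J ≤ P.N :=
  (Subgroup.closure_le _).2 (fun _ hx => P.subset (hJ hx))

theorem mem_parabolic_iff {J : Set G} (hJ : J ⊆ P.S) (g : G) :
    g ∈ P.parabolic J ↔ ∃ n ∈ Subgroup.closure J, g ∈ cell P n := by
  constructor
  · intro hg
    set U : Set G := {x | ∃ n ∈ Subgroup.closure J, x ∈ cell P n} with hU
    let Stab : Subgroup G := MulAction.stabilizer G U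
    have hstab : ∀ k : G, (∀ x ∈ U, k * x ∈ U) → (∀ x ∈ U, k⁻¹ * x ∈ U) → k ∈ Stab := by
      intro k h1 h2
      refine MulAction.mem_stabilizer_iff.2 (Set.ext fun x => ?_)
      rw [Set.mem_smul_set_iff_inv_smul_mem, smul_eq_mul]
      exact ⟨fun hx => by simpa using h1 _ hx, h2 x⟩
    have hB : P.B ≤ Stab := by
      intro b hb
      refine hstab b ?_ ?_
      · rintro x ⟨n, hn, hx⟩
        exact ⟨n, hn, by simpa using mul_mem_cell P hx hb (one_mem _)⟩
      · rintro x ⟨n, hn, hx⟩
        exact ⟨n, hn, by simpa using mul_mem_cell P hx (inv_mem hb) (one_mem _)⟩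
    have hJs : Subgroup.closure J ≤ Stab := by
      refine (Subgroup.closure_le _).2 (fun s hs => ?_)
      have h1 : ∀ x ∈ U, s * x ∈ U := by
        rintro x ⟨n, hn, hx⟩
        rcases left_step P (hJ hs) (closure_le_N P hJ hn) hx with h | h
        · exact ⟨_, mul_mem (Subgroup.subset_closure hs) hn, h⟩
        · exact ⟨n, hn, h⟩
      refine hstab s h1 ?_
      intro x hx
      obtain ⟨n, hn, hxn⟩ := h1 x hx
      obtain ⟨h, hh, hh'⟩ := inv_S_eq P (hJ hs)
      refine ⟨n, hn, ?_⟩
      rw [hh']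
      simpa [mul_assoc] using mul_mem_cell P hxn (Subgroup.mem_inf.1 hh).1 (one_mem _)
    have hgS : g ∈ Stab := (sup_le hB hJs) hg
    have h1U : (1 : G) ∈ U := ⟨1, one_mem _, self_mem_cell P 1⟩
    have := MulAction.mem_stabilizer_iff.1 hgS
    have hgU : g ∈ g • U := ⟨1, h1U, by simp⟩
    rw [this] at hgU
    exact hgU
  · rintro ⟨n, hn, hx⟩
    obtain ⟨a, ha, b, hb, rfl⟩ := (mem_cell P).1 hx
    exact mul_mem (mul_mem (Subgroup.mem_sup_left ha) (Subgroup.mem_sup_right hn))
      (Subgroup.mem_sup_left hb)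

theorem parabolic_S : P.parabolic P.S = ⊤ := by
  refine top_le_iff.1 (P.sup_eq_top ▸ sup_le le_sup_left ?_)
  rw [← P.closure_sup]
  exact sup_le le_sup_right (inf_le_left.trans le_sup_left)

theorem bruhat (g : G) : ∃ n ∈ P.N, g ∈ cell P n := by
  obtain ⟨n, hn, h⟩ := (mem_parabolic_iff P (le_refl P.S) g).1 (parabolic_S P ▸ Subgroup.mem_top g)
  exact ⟨n, closure_le_N P (le_refl _) hn, h⟩

/-! ### Words and length -/

/-- `l` is a word in `J` representing `n` modulo the torus. -/
def IsWord (J : Set G) (l : List G) (n : G) : Prop :=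
  (∀ x ∈ l, x ∈ J) ∧ l.prod⁻¹ * n ∈ torus P

theorem IsWord.mono {J K : Set G} (h : J ⊆ K) {l : List G} {n : G} (hl : IsWord P J l n) :
    IsWord P K l n := ⟨fun x hx => h (hl.1 x hx), hl.2⟩

theorem prod_mem_N {l : List G} (hl : ∀ x ∈ l, x ∈ P.S) : l.prod ∈ P.N :=
  list_prod_mem (fun x hx => P.subset (hl x hx))

theorem IsWord.mem_N {J : Set G} (hJ : J ⊆ P.S) {l : List G} {n : G} (hl : IsWord P J l n) :
    n ∈ P.N := by
  have := mul_mem (prod_mem_N P fun x hx => hJ (hl.1 x hx)) (Subgroup.mem_inf.1 hl.2).2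
  simpa using this

theorem IsWord.cons {J : Set G} {l : List G} {n s : G} (hs : s ∈ J) (hl : IsWord P J l n) :
    IsWord P J (s :: l) (s * n) := by
  refine ⟨fun x hx => ?_, ?_⟩
  · rcases List.mem_cons.1 hx with rfl | hx
    · exact hs
    · exact hl.1 x hx
  · have : (s :: l).prod⁻¹ * (s * n) = l.prod⁻¹ * n := by simp [List.prod_cons, mul_assoc]
    rw [this]; exact hl.2

theorem IsWord.mul_torus {J : Set G} {l : List G} {n h : G} (hl : IsWord P J l n)
    (hh : h ∈ torus P) : IsWord P J l (n * h) :=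
  ⟨hl.1, by rw [← mul_assoc]; exact mul_mem hl.2 hh⟩

theorem IsWord.torus_mul {J : Set G} (hJ : J ⊆ P.S) {l : List G} {n h : G} (hl : IsWord P J l n)
    (hh : h ∈ torus P) : IsWord P J l (h * n) := by
  have : h * n = n * (n⁻¹ * h * n) := by group
  rw [this]
  exact hl.mul_torus P (torus_conj' P (hl.mem_N P hJ) hh)

theorem IsWord.tail {J : Set G} {l : List G} {n s : G} (hl : IsWord P J (s :: l) n) :
    IsWord P J l (s⁻¹ * n) := by
  refine ⟨fun x hx => hl.1 x (List.mem_cons_of_mem _ hx), ?_⟩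
  have : l.prod⁻¹ * (s⁻¹ * n) = (s :: l).prod⁻¹ * n := by simp [List.prod_cons]; group
  rw [this]; exact hl.2

theorem IsWord.mem_closure_sup {J : Set G} {l : List G} {n : G} (hl : IsWord P J l n) :
    n ∈ Subgroup.closure J ⊔ torus P := by
  have h1 : l.prod ∈ Subgroup.closure J :=
    list_prod_mem (fun x hx => Subgroup.subset_closure (hl.1 x hx))
  have := mul_mem (Subgroup.mem_sup_left (T := torus P) h1) (Subgroup.mem_sup_right (S := Subgroup.closure J) hl.2)
  simpa using this

theorem exists_isWord {J : Set G} (hJ : J ⊆ P.S) {n : G}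
    (hn : n ∈ Subgroup.closure J ⊔ torus P) : ∃ l, IsWord P J l n := by
  rw [← Subgroup.closure_eq (torus P), ← Subgroup.closure_union] at hn
  induction hn using Subgroup.closure_induction_left with
  | one => exact ⟨[], by simp, by simpa using one_mem (torus P)⟩
  | mul_left x hx y _ ih =>
    obtain ⟨l, hl⟩ := ih
    rcases hx with hx | hx
    · exact ⟨x :: l, hl.cons P hx⟩
    · exact ⟨l, hl.torus_mul P hJ hx⟩
  | inv_mul_cancel x hx y _ ih =>
    obtain ⟨l, hl⟩ := ih
    rcases hx with hx | hx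
    · obtain ⟨h, hh, hh'⟩ := inv_S_eq P (hJ hx)
      refine ⟨x :: l, ?_⟩
      rw [hh', mul_assoc]
      exact (hl.cons P hx).torus_mul P hJ hh
    · exact ⟨l, hl.torus_mul P hJ (inv_mem hx)⟩

theorem N_exists_isWord {n : G} (hn : n ∈ P.N) : ∃ l, IsWord P P.S l n :=
  exists_isWord P (le_refl _) (P.closure_sup.symm ▸ hn)

open Classical in
/-- The length of an element of `N` in the generators `S`, modulo the torus. -/
noncomputable def len (n : G) : ℕ :=
  if h : ∃ k : ℕ, ∃ l, IsWord P P.S l n ∧ l.length = k then Nat.find h else 0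

theorem len_le {n : G} {l : List G} (hl : IsWord P P.S l n) : len P n ≤ l.length := by
  classical
  have h : ∃ k : ℕ, ∃ l, IsWord P P.S l n ∧ l.length = k := ⟨_, l, hl, rfl⟩
  rw [len, dif_pos h]
  exact Nat.find_min' h ⟨l, hl, rfl⟩

theorem exists_reduced {n : G} (hn : n ∈ P.N) : ∃ l, IsWord P P.S l n ∧ l.length = len P n := by
  classical
  obtain ⟨l, hl⟩ := N_exists_isWord P hn
  have h : ∃ k : ℕ, ∃ l, IsWord P P.S l n ∧ l.length = k := ⟨_, l, hl, rfl⟩
  rw [len, dif_pos h]
  exact Nat.find_spec h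

theorem len_one : len P (1 : G) = 0 :=
  Nat.le_zero.1 (len_le P (l := []) ⟨by simp, by simpa using one_mem (torus P)⟩)

theorem len_mul_torus {n h : G} (hn : n ∈ P.N) (hh : h ∈ torus P) : len P (n * h) = len P n := by
  refine le_antisymm ?_ ?_
  · obtain ⟨l, hl, hl'⟩ := exists_reduced P hn
    exact hl' ▸ len_le P (hl.mul_torus P hh)
  · obtain ⟨l, hl, hl'⟩ := exists_reduced P (mul_mem hn (Subgroup.mem_inf.1 hh).2)
    have := len_le P (hl.mul_torus P (inv_mem hh))
    simpa [hl'] using this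

theorem len_torus_mul {n h : G} (hn : n ∈ P.N) (hh : h ∈ torus P) : len P (h * n) = len P n := by
  have : h * n = n * (n⁻¹ * h * n) := by group
  rw [this, len_mul_torus P hn (torus_conj' P hn hh)]

theorem len_congr {n n' : G} (hn : n ∈ P.N) (h : n⁻¹ * n' ∈ torus P) : len P n' = len P n := by
  have := len_mul_torus P hn h
  simpa using this

theorem len_eq_zero {n : G} (hn : n ∈ P.N) : len P n = 0 ↔ n ∈ P.B := by
  constructor
  · intro h
    obtain ⟨l, hl, hl'⟩ := exists_reduced P hn
    rw [h, List.length_eq_zero_iff] at hl'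
    subst hl'
    simpa using (Subgroup.mem_inf.1 hl.2).1
  · intro h
    have := len_le P (l := []) (n := n) ⟨by simp, by simpa using And.intro h hn⟩
    simpa using this

theorem len_S_mul_le {n s : G} (hn : n ∈ P.N) (hs : s ∈ P.S) : len P (s * n) ≤ len P n + 1 := by
  obtain ⟨l, hl, hl'⟩ := exists_reduced P hn
  simpa [hl'] using len_le P (hl.cons P hs)

theorem len_sq_mul {n s : G} (hn : n ∈ P.N) (hs : s ∈ P.S) :
    len P (s * (s * n)) = len P n := by
  rw [← mul_assoc]; exact len_torus_mul P hn (sq_mem_torus P hs)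

theorem len_inv_S_mul {n s : G} (hn : n ∈ P.N) (hs : s ∈ P.S) :
    len P (s⁻¹ * n) = len P (s * n) := by
  obtain ⟨h, hh, hh'⟩ := inv_S_eq P hs
  rw [hh', mul_assoc, len_torus_mul P (mul_mem (S_mem_N P hs) hn) hh]

theorem le_len_S_mul {n s : G} (hn : n ∈ P.N) (hs : s ∈ P.S) :
    len P n ≤ len P (s * n) + 1 := by
  have := len_S_mul_le P (mul_mem (S_mem_N P hs) hn) hs
  rwa [len_sq_mul P hn hs] at this

theorem exists_left_descent {n : G} {k : ℕ} (hn : n ∈ P.N) (h : len P n = k + 1) :
    ∃ s ∈ P.S, len P (s * n) = k := by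
  obtain ⟨l, hl, hl'⟩ := exists_reduced P hn
  match l, hl, hl' with
  | [], _, hl' => simp at hl'; omega
  | s :: l, hl, hl' =>
    have hs := hl.1 s List.mem_cons_self
    refine ⟨s, hs, ?_⟩
    have h1 := len_le P (hl.tail P)
    have h2 := le_len_S_mul P hn hs
    rw [len_inv_S_mul P hn hs] at h1
    simp at hl'
    omega

theorem exists_right_descent {n : G} {k : ℕ} (hn : n ∈ P.N) (h : len P n = k + 1) :
    ∃ t ∈ P.S, ∃ m ∈ P.N, n = m * t ∧ len P m ≤ k := by
  obtain ⟨l, hl, hl'⟩ := exists_reduced P hn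
  rcases List.eq_nil_or_concat l with rfl | ⟨l₀, t, rfl⟩
  · simp at hl'; omega
  · simp only [List.concat_eq_append] at hl hl'
    have ht : t ∈ P.S := hl.1 t (by simp)
    have hl0 : ∀ x ∈ l₀, x ∈ P.S := fun x hx => hl.1 x (by simp [hx])
    refine ⟨t, ht, n * t⁻¹, mul_mem hn (inv_mem (S_mem_N P ht)), by group, ?_⟩
    have hw : IsWord P P.S l₀ (n * t⁻¹) := by
      refine ⟨hl0, ?_⟩
      have h2 := torus_conj P (S_mem_N P ht) hl.2
      simpa [List.prod_append, mul_assoc, mul_inv_rev] using h2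
    have := len_le P hw
    simp at hl'; omega

/-! ### Cells determine elements of `N` modulo the torus -/

theorem cell_inj_aux : ∀ k : ℕ, ∀ n ∈ P.N, ∀ n' ∈ P.N, len P n = k → k ≤ len P n' →
    cell P n = cell P n' → n⁻¹ * n' ∈ P.B := by
  intro k
  induction k with
  | zero =>
    intro n hn n' _ h _ hc
    have hnB := (len_eq_zero P hn).1 h
    obtain ⟨a, ha, b, hb, rfl⟩ := (mem_cell P).1 (hc ▸ self_mem_cell P n')
    exact mul_mem (inv_mem hnB) (mul_mem (mul_mem ha hnB) hb)
  | succ k ih =>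
    intro n hn n' hn' h hle hc
    obtain ⟨s, hs, hk⟩ := exists_left_descent P hn h
    have hm := mul_mem (S_mem_N P hs) hn
    have hmem : n ∈ cell P n' := hc ▸ self_mem_cell P n
    have hsN := S_mem_N P hs
    rcases left_step P hs hn' hmem with h1 | h1
    · have := ih _ hm _ (mul_mem hsN hn') hk (by have := le_len_S_mul P hn' hs; omega) (cell_eq P h1)
      simpa [mul_assoc] using this
    · have hb := ih _ hm _ hn' hk (by omega) (cell_eq P h1)
      have : len P n' = len P (s * n) :=
        len_congr P hm (Subgroup.mem_inf.2 ⟨hb, mul_mem (inv_mem hm) hn'⟩)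
      omega

theorem cell_inj {n n' : G} (hn : n ∈ P.N) (hn' : n' ∈ P.N) :
    cell P n = cell P n' ↔ n⁻¹ * n' ∈ P.B := by
  constructor
  · intro h
    rcases le_total (len P n) (len P n') with hl | hl
    · exact cell_inj_aux P _ n hn n' hn' rfl hl h
    · have := inv_mem (cell_inj_aux P _ n' hn' n hn rfl hl h.symm)
      simpa using this
  · intro h
    have : n' = n * (n⁻¹ * n') := by group
    rw [this, cell_mul_right P h]

theorem torus_of_cell_eq {n n' : G} (hn : n ∈ P.N) (hn' : n' ∈ P.N)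
    (h : cell P n = cell P n') : n⁻¹ * n' ∈ torus P :=
  Subgroup.mem_inf.2 ⟨(cell_inj P hn hn').1 h, mul_mem (inv_mem hn) hn'⟩

theorem not_mem_B {s : G} (hs : s ∈ P.S) : s ∉ P.B := by
  intro h
  apply P.conj_ne s hs
  ext x
  constructor
  · rintro ⟨b, hb, rfl⟩; exact mul_mem (mul_mem h hb) h
  · intro hx
    exact ⟨s⁻¹ * x * s⁻¹, mul_mem (mul_mem (inv_mem h) hx) (inv_mem h), by group⟩

theorem len_S {s : G} (hs : s ∈ P.S) : len P s = 1 := by
  have h1 := len_S_mul_le P (n := 1) (one_mem _) hs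
  simp [len_one] at h1
  have h2 : len P s ≠ 0 := fun h => not_mem_B P hs ((len_eq_zero P (S_mem_N P hs)).1 h)
  omega

theorem exists_sbs {s : G} (hs : s ∈ P.S) : ∃ b ∈ P.B, s * b * s ∈ cell P s := by
  by_contra hcon
  push Not at hcon
  have hall : ∀ b ∈ P.B, s * b * s ∈ P.B := by
    intro b hb
    rcases P.mul_mem_union s hs s (S_mem_N P hs) b hb with h | h
    · obtain ⟨a, ha, c, hc, habc⟩ := (mem_cell P).1 h
      rw [habc]; exact mul_mem (mul_mem ha (P.sq_mem s hs)) hc
    · exact absurd h (hcon b hb)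
  apply P.conj_ne s hs
  ext x
  constructor
  · rintro ⟨b, hb, rfl⟩; exact hall b hb
  · intro hx
    refine ⟨s⁻¹ * x * s⁻¹, ?_, by group⟩
    have : s⁻¹ * x * s⁻¹ = (s * s)⁻¹ * (s * x * s) * (s * s)⁻¹ := by group
    rw [this]
    exact mul_mem (mul_mem (inv_mem (P.sq_mem s hs)) (hall x hx)) (inv_mem (P.sq_mem s hs))

theorem step_up_aux {s : G} (hs : s ∈ P.S) : ∀ k : ℕ, ∀ n ∈ P.N, len P n = k → k ≤ len P (s * n) →
    ∀ b ∈ P.B, s * b * n ∈ cell P (s * n) := by
  intro k
  induction k using Nat.strong_induction_on with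
  | _ k ih =>
    intro n hn hk hle b hb
    rcases P.mul_mem_union s hs n hn b hb with h | h
    · exact h
    match k, hk, hle, ih with
    | 0, hk, _, _ =>
      have hnB := (len_eq_zero P hn).1 hk
      exact (mem_cell P).2 ⟨1, one_mem _, n⁻¹ * b * n, mul_mem (mul_mem (inv_mem hnB) hb) hnB, by group⟩
    | k + 1, hk, hle, ih =>
      obtain ⟨t, ht, m, hm, rfl, hmk⟩ := exists_right_descent P hn hk
      have htN := S_mem_N P ht
      have hsN := S_mem_N P hs
      obtain ⟨h0, hh0, hh0'⟩ := inv_S_eq' P ht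
      have hsm : k ≤ len P (s * m) := by
        obtain ⟨l, hl, hl'⟩ := exists_reduced P (mul_mem hsN hm)
        have hw : IsWord P P.S (l ++ [t]) (s * m * t) := by
          refine ⟨fun x hx => ?_, ?_⟩
          · rcases List.mem_append.1 hx with hx | hx
            · exact hl.1 x hx
            · rw [List.mem_singleton] at hx; exact hx ▸ ht
          · have := torus_conj' P htN hl.2
            simpa [List.prod_append, mul_assoc, mul_inv_rev] using this
        have := len_le P hw
        simp [hl'] at this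
        rw [mul_assoc] at this
        omega
      have hup := ih (len P m) (by omega) m hm rfl (by omega) b hb
      have hx : s * b * m = s * b * (m * t) * t * (t⁻¹ * t⁻¹) := by group
      rcases right_step P ht (mul_mem hm htN) h with h1 | h1
      · have h2 : s * b * m ∈ cell P (m * t * t) := by
          rw [hx]
          simpa using mul_mem_cell P h1 (one_mem _)
            (show t⁻¹ * t⁻¹ ∈ P.B by rw [← mul_inv_rev]; exact inv_mem (P.sq_mem t ht))
        have e : cell P (s * m) = cell P m := by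
          rw [← cell_eq P hup, cell_eq P h2, mul_assoc, cell_mul_right P (P.sq_mem t ht)]
        have hT := torus_of_cell_eq P hm (mul_mem hsN hm) e.symm
        have hT2 := torus_conj' P htN hT
        have e2 : cell P (s * (m * t)) = cell P (m * t) := by
          rw [show s * (m * t) = m * t * (t⁻¹ * (m⁻¹ * (s * m)) * t) by group,
            cell_mul_right P (Subgroup.mem_inf.1 hT2).1]
        rw [e2]; exact h
      · have h2 : s * b * m ∈ cell P (m * t) := by
          rw [hx]
          simpa using mul_mem_cell P h1 (one_mem _)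
            (show t⁻¹ * t⁻¹ ∈ P.B by rw [← mul_inv_rev]; exact inv_mem (P.sq_mem t ht))
        have e : cell P (m * t) = cell P (s * m) := by rw [← cell_eq P hup, cell_eq P h2]
        have hT := torus_of_cell_eq P (mul_mem hm htN) (mul_mem hsN hm) e
        exfalso
        have e3 : s * (m * t) = m * ((t * t) * (t⁻¹ * ((m * t)⁻¹ * (s * m)) * t)) := by group
        have hT3 := mul_mem (sq_mem_torus P ht) (torus_conj' P htN hT)
        have := len_mul_torus P hm hT3
        rw [← e3] at this
        omega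

theorem step_up {s n b : G} (hs : s ∈ P.S) (hn : n ∈ P.N) (h : len P n ≤ len P (s * n))
    (hb : b ∈ P.B) : s * b * n ∈ cell P (s * n) :=
  step_up_aux P hs _ n hn rfl h b hb

theorem step_down {s n : G} (hs : s ∈ P.S) (hn : n ∈ P.N) (h : len P (s * n) ≤ len P n) :
    ∃ b ∈ P.B, s * b * n ∈ cell P n := by
  have hsN := S_mem_N P hs
  have hm := mul_mem hsN hn
  obtain ⟨b₀, hb₀, hsbs⟩ := exists_sbs P hs
  obtain ⟨a, ha, c, hc, hac⟩ := (mem_cell P).1 hsbs
  have hl : len P (s * n) ≤ len P (s * (s * n)) := by rwa [len_sq_mul P hn hs]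
  have h1 := step_up P hs hm hl hc
  have e : cell P (s * (s * n)) = cell P n := by
    rw [show s * (s * n) = n * (n⁻¹ * (s * s) * n) by group,
      cell_mul_right P (Subgroup.mem_inf.1 (torus_conj' P hn (sq_mem_torus P hs))).1]
  rw [e] at h1
  refine ⟨b₀ * (s * s), mul_mem hb₀ (P.sq_mem s hs), ?_⟩
  have e4 : s * (b₀ * (s * s)) * n = a * (s * c * (s * n)) * 1 := by
    have : s * (b₀ * (s * s)) * n = (s * b₀ * s) * (s * n) := by group
    rw [this, hac]; group
  rw [e4]
  exact mul_mem_cell P h1 ha (one_mem _)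

theorem len_ne {s n : G} (hs : s ∈ P.S) (hn : n ∈ P.N) : len P (s * n) ≠ len P n := by
  intro h
  obtain ⟨b, hb, hbn⟩ := step_down P hs hn h.le
  have h1 := step_up P hs hn h.ge hb
  have e : cell P n = cell P (s * n) := (cell_eq P hbn).symm.trans (cell_eq P h1)
  have hT := torus_conj P hn (torus_of_cell_eq P hn (mul_mem (S_mem_N P hs) hn) e)
  have e2 : n * (n⁻¹ * (s * n)) * n⁻¹ = s := by group
  rw [e2] at hT
  exact not_mem_B P hs (Subgroup.mem_inf.1 hT).1

theorem S_mem_of_descent {s n : G} (hs : s ∈ P.S) (hn : n ∈ P.N)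
    (h : len P (s * n) ≤ len P n) (M : Subgroup G) (hB : P.B ≤ M)
    (hM : ∀ b ∈ P.B, n * b * n⁻¹ ∈ M) : s ∈ M := by
  obtain ⟨b, hb, hbn⟩ := step_down P hs hn h
  obtain ⟨a, ha, c, hc, hac⟩ := (mem_cell P).1 hbn
  have : s = a * (n * c * n⁻¹) * b⁻¹ := by
    calc s = (s * b * n) * (b * n)⁻¹ := by group
    _ = _ := by rw [hac]; group
  rw [this]
  exact mul_mem (mul_mem (hB ha) (hM c hc)) (inv_mem (hB hb))

theorem word_of_conj_le {n : G} (hn : n ∈ P.N) (M : Subgroup G) (hB : P.B ≤ M)
    (hM : ∀ b ∈ P.B, n * b * n⁻¹ ∈ M) :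
    n ∈ M ∧ ∃ l, IsWord P {s | s ∈ P.S ∧ s ∈ M} l n := by
  suffices ∀ k, ∀ n ∈ P.N, len P n = k → (∀ b ∈ P.B, n * b * n⁻¹ ∈ M) →
      n ∈ M ∧ ∃ l, IsWord P {s | s ∈ P.S ∧ s ∈ M} l n from this _ n hn rfl hM
  intro k
  induction k with
  | zero =>
    intro n hn h _
    have hnB := (len_eq_zero P hn).1 h
    exact ⟨hB hnB, [], by simp, by simpa using And.intro hnB hn⟩
  | succ k ih =>
    intro n hn h hM
    obtain ⟨s, hs, hk⟩ := exists_left_descent P hn h
    have hsM := S_mem_of_descent P hs hn (by omega) M hB hM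
    have hconj : ∀ b ∈ P.B, s * n * b * (s * n)⁻¹ ∈ M := by
      intro b hb
      have : s * n * b * (s * n)⁻¹ = s * (n * b * n⁻¹) * s⁻¹ := by group
      rw [this]; exact mul_mem (mul_mem hsM (hM b hb)) (inv_mem hsM)
    obtain ⟨hmM, l, hl⟩ := ih _ (mul_mem (S_mem_N P hs) hn) hk hconj
    refine ⟨by simpa using mul_mem (inv_mem hsM) hmM, s :: l, ?_⟩
    have hw := IsWord.cons P (s := s) (show s ∈ {s | s ∈ P.S ∧ s ∈ M} from ⟨hs, hsM⟩) hl
    have e : n = (s * s)⁻¹ * (s * (s * n)) := by group
    rw [e]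
    exact hw.torus_mul P (fun x hx => hx.1) (inv_mem (sq_mem_torus P hs))

theorem exists_eq_parabolic (M : Subgroup G) (hM : P.B ≤ M) :
    M = P.parabolic {s | s ∈ P.S ∧ s ∈ M} := by
  refine le_antisymm ?_ (sup_le hM ((Subgroup.closure_le _).2 fun x hx => hx.2))
  intro g hg
  obtain ⟨n, hn, hgn⟩ := bruhat P g
  obtain ⟨a, ha, b, hb, rfl⟩ := (mem_cell P).1 hgn
  have hnM : n ∈ M := by
    have := mul_mem (mul_mem (inv_mem (hM ha)) hg) (inv_mem (hM hb))
    simpa [mul_assoc] using this
  obtain ⟨-, l, hl⟩ := word_of_conj_le P hn M hM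
    (fun c hc => mul_mem (mul_mem hnM (hM hc)) (inv_mem hnM))
  have hle : Subgroup.closure {s | s ∈ P.S ∧ s ∈ M} ⊔ torus P ≤
      P.parabolic {s | s ∈ P.S ∧ s ∈ M} :=
    sup_le le_sup_right (inf_le_left.trans le_sup_left)
  exact mul_mem (mul_mem (Subgroup.mem_sup_left ha) (hle (hl.mem_closure_sup P)))
    (Subgroup.mem_sup_left hb)

/-! ### Exchange and reduced words -/

theorem exchange {s : G} (hs : s ∈ P.S) : ∀ l : List G, ∀ n, IsWord P P.S l n →
    len P (s * n) < len P n →
    ∃ l', IsWord P P.S l' (s * n) ∧ l'.length < l.length ∧ ∀ x ∈ l', x ∈ l := by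
  intro l
  induction l using List.reverseRecOn with
  | nil =>
    intro n hl h
    have := len_le P hl
    simp at this
    omega
  | append_singleton l t ih =>
    intro n hl h
    have ht : t ∈ P.S := hl.1 t (by simp)
    have hsN := S_mem_N P hs
    have htN := S_mem_N P ht
    have hn := hl.mem_N P (le_refl _)
    have hw : IsWord P P.S l (n * t⁻¹) := by
      refine ⟨fun x hx => hl.1 x (by simp [hx]), ?_⟩
      have h2 := torus_conj P htN hl.2
      simpa [List.prod_append, mul_assoc, mul_inv_rev] using h2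
    have hm := hw.mem_N P (le_refl _)
    rcases Nat.lt_or_ge (len P (s * (n * t⁻¹))) (len P (n * t⁻¹)) with hlt | hge
    · obtain ⟨l', hl', hlen, hsub⟩ := ih _ hw hlt
      refine ⟨l' ++ [t], ⟨fun x hx => ?_, ?_⟩, by simp; omega, ?_⟩
      · rcases List.mem_append.1 hx with hx | hx
        · exact hl'.1 x hx
        · rw [List.mem_singleton] at hx; exact hx ▸ ht
      · have := torus_conj' P htN hl'.2
        simpa [List.prod_append, mul_assoc, mul_inv_rev] using this
      · intro x hx
        rcases List.mem_append.1 hx with hx | hx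
        · exact List.mem_append_left _ (hsub x hx)
        · exact List.mem_append_right _ hx
    · refine ⟨l, ?_, by simp, fun x hx => List.mem_append_left _ hx⟩
      obtain ⟨b, hb, hbn⟩ := step_down P hs hn h.le
      have hup := step_up P hs hm hge hb
      have hr := right_step P ht hm (show n * t⁻¹ ∈ cell P (n * t⁻¹) from self_mem_cell P _)
      have h3 : s * b * n ∈ cell P (s * (n * t⁻¹) * t) ∨ s * b * n ∈ cell P (s * (n * t⁻¹)) := by
        have e : s * b * n = s * b * (n * t⁻¹) * t := by group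
        rw [e]
        exact right_step P ht (mul_mem hsN hm) hup
      rcases h3 with h3 | h3
      · exfalso
        have e : s * (n * t⁻¹) * t = s * n := by group
        rw [e] at h3
        have e2 : cell P n = cell P (s * n) := (cell_eq P hbn).symm.trans (cell_eq P h3)
        have := len_congr P hn (torus_of_cell_eq P hn (mul_mem hsN hn) e2)
        omega
      · have e2 : cell P n = cell P (s * (n * t⁻¹)) := (cell_eq P hbn).symm.trans (cell_eq P h3)
        have hT := torus_of_cell_eq P hn (mul_mem hsN hm) e2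
        -- `s * n` agrees with `n * t⁻¹` modulo the torus
        have hT' := torus_conj P (mul_mem hsN hn) (inv_mem hT)
        have e4 : s * n = (s * n * (n⁻¹ * (s * (n * t⁻¹)))⁻¹ * (s * n)⁻¹) * ((s * s) * (n * t⁻¹)) := by
          group
        rw [e4, ← mul_assoc]
        exact hw.torus_mul P (le_refl _) (mul_mem hT' (sq_mem_torus P hs))

theorem exists_reduced_sub {J : Set G} (hJ : J ⊆ P.S) {n : G}
    (hn : n ∈ Subgroup.closure J ⊔ torus P) : ∃ l, IsWord P J l n ∧ l.length = len P n := by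
  suffices ∀ l n, IsWord P J l n → ∃ l', IsWord P J l' n ∧ l'.length = len P n by
    obtain ⟨l, hl⟩ := exists_isWord P hJ hn
    exact this l n hl
  intro l
  induction l with
  | nil =>
    intro n hl
    exact ⟨[], hl, (Nat.le_zero.1 (len_le P (hl.mono P hJ))).symm⟩
  | cons s l ih =>
    intro n hl
    obtain ⟨l'', hl'', hlen⟩ := ih _ (hl.tail P)
    have hsJ := hl.1 s List.mem_cons_self
    have hs := hJ hsJ
    have hm : s⁻¹ * n ∈ P.N := hl''.mem_N P hJ
    have hnN : n ∈ P.N := hl.mem_N P hJ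
    have hsn : len P (s * (s⁻¹ * n)) = len P n := by simp
    have h1 : len P n ≤ len P (s⁻¹ * n) + 1 := hsn ▸ len_S_mul_le P hm hs
    rcases Nat.lt_or_ge (len P (s * (s⁻¹ * n))) (len P (s⁻¹ * n)) with hlt | hge
    · obtain ⟨l', hl', hlt', hsub⟩ := exchange P hs l'' _ (hl''.mono P hJ) hlt
      rw [mul_inv_cancel_left] at hl'
      refine ⟨l', ⟨fun x hx => hl''.1 x (hsub x hx), hl'.2⟩, ?_⟩
      have h2 : len P (s⁻¹ * n) ≤ len P n + 1 := by
        rw [len_inv_S_mul P hnN hs]; exact len_S_mul_le P hnN hs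
      have h3 := len_le P hl'
      omega
    · have hne := len_ne P hs hm
      refine ⟨s :: l'', ?_, by simp; omega⟩
      have := hl''.cons P hsJ
      simpa using this

theorem mem_of_mem_parabolic {J : Set G} (hJ : J ⊆ P.S) {s : G} (hs : s ∈ P.S)
    (h : s ∈ P.parabolic J) : s ∈ J := by
  obtain ⟨n, hn, hsn⟩ := (mem_parabolic_iff P hJ s).1 h
  have hnN := closure_le_N P hJ hn
  have hT := torus_of_cell_eq P (S_mem_N P hs) hnN (cell_eq P hsn)
  have hsmem : s ∈ Subgroup.closure J ⊔ torus P := by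
    have := mul_mem (Subgroup.mem_sup_left (T := torus P) hn)
      (inv_mem (Subgroup.mem_sup_right (S := Subgroup.closure J) hT))
    simpa using this
  obtain ⟨l, hl, hlen⟩ := exists_reduced_sub P hJ hsmem
  rw [len_S P hs, List.length_eq_one_iff] at hlen
  obtain ⟨t, rfl⟩ := hlen
  have htJ := hl.1 t (by simp)
  have : t⁻¹ * s ∈ P.B := by simpa using (Subgroup.mem_inf.1 hl.2).1
  exact P.inj t (hJ htJ) s hs this ▸ htJ

theorem parabolic_le_iff {J K : Set G} (hJ : J ⊆ P.S) (hK : K ⊆ P.S) :
    P.parabolic J ≤ P.parabolic K ↔ J ⊆ K :=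
  ⟨fun h _ hs => mem_of_mem_parabolic P hK (hJ hs)
      (h (Subgroup.mem_sup_right (Subgroup.subset_closure hs))),
    fun h => sup_le_sup_left (Subgroup.closure_mono h) _⟩

theorem parabolic_conj_eq {J K : Set G} (g : G)
    (h : (P.parabolic J).map (MulAut.conj g).toMonoidHom = P.parabolic K) :
    P.parabolic J = P.parabolic K ∧ g ∈ P.parabolic K := by
  obtain ⟨n, hn, hgn⟩ := bruhat P g
  obtain ⟨a, ha, b, hb, rfl⟩ := (mem_cell P).1 hgn
  have hK : P.B ≤ P.parabolic K := le_sup_left
  have hJ : P.B ≤ P.parabolic J := le_sup_left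
  have hconj : ∀ x, x ∈ P.parabolic J → a * n * b * x * (a * n * b)⁻¹ ∈ P.parabolic K := by
    intro x hx; rw [← h]; exact ⟨x, hx, rfl⟩
  obtain ⟨hnK, -⟩ := word_of_conj_le P hn (P.parabolic K) hK (fun c hc => by
    have := hconj (b⁻¹ * c * b) (mul_mem (mul_mem (inv_mem (hJ hb)) (hJ hc)) (hJ hb))
    have e : n * c * n⁻¹ = a⁻¹ * (a * n * b * (b⁻¹ * c * b) * (a * n * b)⁻¹) * a := by group
    rw [e]; exact mul_mem (mul_mem (inv_mem (hK ha)) this) (hK ha))
  have hg : a * n * b ∈ P.parabolic K := mul_mem (mul_mem (hK ha) hnK) (hK hb)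
  refine ⟨le_antisymm ?_ ?_, hg⟩
  · intro x hx
    have := mul_mem (mul_mem (inv_mem hg) (hconj x hx)) hg
    simpa [mul_assoc] using this
  · intro y hy
    have : (a * n * b) * y * (a * n * b)⁻¹ ∈ P.parabolic K := mul_mem (mul_mem hg hy) (inv_mem hg)
    rw [← h] at this
    obtain ⟨x, hx, hxy⟩ := this
    have : x = y := by simpa [MulAut.conj] using hxy
    exact this ▸ hx

theorem conj_eq_normalizer {J : Set G} :
    Subgroup.normalizer (P.parabolic J : Set G) = P.parabolic J := by
  refine le_antisymm ?_ Subgroup.le_normalizer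
  intro g hg
  refine (parabolic_conj_eq P (J := J) g ?_).2
  ext y
  constructor
  · rintro ⟨x, hx, rfl⟩; exact (Subgroup.mem_normalizer_iff.1 hg x).1 hx
  · intro hy
    refine ⟨g⁻¹ * y * g, ?_, by simp [mul_assoc]⟩
    exact (Subgroup.mem_normalizer_iff.1 hg _).2 (by simpa [mul_assoc] using hy)

theorem simple_of_perfect [Nontrivial G] (hirr : P.Irreducible) (hsolv : Group.IsSolvable P.B)
    (hperf : commutator G = ⊤) (hcore : P.B.normalCore = ⊥) : IsSimpleGroup G := by
  refine ⟨fun K hK => ?_⟩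
  haveI := hK
  set J : Set G := {s | s ∈ P.S ∧ s ∈ P.B ⊔ K} with hJdef
  have hJ : J ⊆ P.S := fun x hx => hx.1
  have hBK : P.B ⊔ K = P.parabolic J := exists_eq_parabolic P _ le_sup_left
  by_cases hne : J.Nonempty
  · by_cases hrest : (P.S \ J).Nonempty
    · exfalso
      obtain ⟨s, hs, s', hs', hcomm⟩ := hirr J hJ hne hrest
      apply hcomm
      have hsS := hJ hs
      have hs'S := hs'.1
      have hsN := S_mem_N P hsS
      have hs'N := S_mem_N P hs'S
      have hsne : s' ≠ s := fun e => hs'.2 (e ▸ hs)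
      have hnot : s' ∉ P.parabolic J := fun h => hs'.2 (mem_of_mem_parabolic P hJ hs'S h)
      -- elements of `N` in the parabolic
      have hNP : ∀ n ∈ P.N, n ∈ P.parabolic J → n ∈ Subgroup.closure J ⊔ torus P := by
        intro n hn hnP
        obtain ⟨w, hw, hnw⟩ := (mem_parabolic_iff P hJ n).1 hnP
        have hT := torus_of_cell_eq P (closure_le_N P hJ hw) hn (cell_eq P hnw).symm
        have := mul_mem (Subgroup.mem_sup_left (T := torus P) hw)
          (Subgroup.mem_sup_right (S := Subgroup.closure J) hT)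
        simpa using this
      have hW : Subgroup.closure J ⊔ torus P ≤ P.parabolic J :=
        sup_le le_sup_right (inf_le_left.trans le_sup_left)
      -- `s' s s'` lies in the parabolic, up to one more step
      have hmem : s' * s * s' ∈ P.parabolic J := by
        obtain ⟨b, hb, k, hk, hbk⟩ := Subgroup.mem_sup_of_normal_right.1
          (show s ∈ P.B ⊔ K from hs.2)
        have hk' : s'⁻¹ * k * s' ∈ K := by simpa using hK.conj_mem k hk s'⁻¹
        have e : s' * s * s' = (s' * b * s') * (s'⁻¹ * k * s') := by rw [← hbk]; group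
        have hk'' : s'⁻¹ * k * s' ∈ P.parabolic J := by
          rw [← hBK]; exact Subgroup.mem_sup_right hk'
        have hN3 : s' * s * s' ∈ P.N := mul_mem (mul_mem hs'N hsN) hs'N
        rcases P.mul_mem_union s' hs'S s' hs'N b hb with h | h
        · obtain ⟨x, hx, y, hy, hxy⟩ := (mem_cell P).1 h
          rw [e, hxy]
          exact mul_mem (mul_mem (mul_mem (Subgroup.mem_sup_left hx)
            (Subgroup.mem_sup_left (P.sq_mem s' hs'S))) (Subgroup.mem_sup_left hy)) hk''
        · exfalso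
          obtain ⟨x, hx, y, hy, hxy⟩ := (mem_cell P).1 h
          have h2 : y * (s'⁻¹ * k * s') ∈ P.parabolic J := mul_mem (Subgroup.mem_sup_left hy) hk''
          obtain ⟨w, hw, hwm⟩ := (mem_parabolic_iff P hJ _).1 h2
          have hwN := closure_le_N P hJ hw
          have e2 : s' * s * s' = x * (s' * (y * (s'⁻¹ * k * s'))) * 1 := by rw [e, hxy]; group
          rcases left_step P hs'S hwN hwm with h3 | h3
          · have h4 := mul_mem_cell P h3 hx (one_mem _)
            rw [← e2] at h4
            have hT := torus_of_cell_eq P (mul_mem hs'N hwN) hN3 (cell_eq P h4).symm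
            -- then `s * s'` lies in the parabolic
            have h5 : s * s' ∈ P.parabolic J := by
              have : s * s' = w * ((s' * w)⁻¹ * (s' * s * s')) := by group
              rw [this]
              exact hW (mul_mem (Subgroup.mem_sup_left hw) (Subgroup.mem_sup_right hT))
            apply hnot
            have := mul_mem (inv_mem (Subgroup.mem_sup_right (S := P.B) (Subgroup.subset_closure hs))) h5
            rw [inv_mul_cancel_left] at this
            exact this
          · apply hnot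
            obtain ⟨u, hu, v, hv, huv⟩ := (mem_cell P).1 h3
            have : s' = u * w * v * (y * (s'⁻¹ * k * s'))⁻¹ := by rw [← huv]; group
            rw [this]
            exact mul_mem (mul_mem (mul_mem (Subgroup.mem_sup_left hu)
              (Subgroup.mem_sup_right hw)) (Subgroup.mem_sup_left hv)) (inv_mem h2)
      have hn3 : s' * s * s' ∈ P.N := mul_mem (mul_mem hs'N hsN) hs'N
      -- reduced word in `J`
      obtain ⟨l, hl, hlen⟩ := exists_reduced_sub P hJ (hNP _ hn3 hmem)
      have hss' : IsWord P P.S [s, s'] (s * s') :=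
        ⟨by simp [hsS, hs'S], by simpa using one_mem (torus P)⟩
      have h2le := len_le P hss'
      simp at h2le
      have hl2 : len P (s * s') = 2 := by
        have h1 := len_ne P hsS hs'N
        rw [len_S P hs'S] at h1
        have h0 : len P (s * s') ≠ 0 := by
          intro h
          have hB := (len_eq_zero P (mul_mem hsN hs'N)).1 h
          apply hnot
          have := mul_mem (inv_mem (Subgroup.mem_sup_right (S := P.B) (Subgroup.subset_closure hs)))
            (Subgroup.mem_sup_left (T := Subgroup.closure J) hB)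
          rw [inv_mul_cancel_left] at this
          exact (show s' ∈ P.parabolic J from this)
        omega
      have hlt : len P (s' * (s * s')) < len P (s * s') := by
        by_contra hge
        push Not at hge
        have hne := len_ne P hs'S (mul_mem hsN hs'N)
        have hle := len_S_mul_le P (mul_mem hsN hs'N) hs'S
        have h3 : len P (s' * s * s') = 3 := by rw [mul_assoc]; omega
        -- then `s'` is a descent, so lies in the parabolic
        refine hnot (S_mem_of_descent P hs'S hn3 ?_ (P.parabolic J) le_sup_left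
          (fun b hb => mul_mem (mul_mem hmem (Subgroup.mem_sup_left hb)) (inv_mem hmem)))
        have h6 : len P (s' * (s' * s * s')) = len P (s * s') := by
          rw [mul_assoc s' s s']; exact len_sq_mul P (mul_mem hsN hs'N) hs'S
        omega
      obtain ⟨l', hl', hlt', hsub⟩ := exchange P hs'S [s, s'] _ hss' hlt
      have hl1 : l'.length ≤ 1 := by simp at hlt'; omega
      have h3ge : 1 ≤ len P (s' * (s * s')) := by
        have := le_len_S_mul P (mul_mem hsN hs'N) hs'S; omega
      have hlen' : l'.length = 1 := le_antisymm hl1 (h3ge.trans (len_le P hl'))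
      obtain ⟨t, rfl⟩ := List.length_eq_one_iff.1 hlen'
      have ht := hsub t (by simp)
      have hT : t⁻¹ * (s' * (s * s')) ∈ torus P := by simpa using hl'.2
      rcases List.mem_cons.1 ht with rfl | ht
      · -- `s' t s' ∈ t T`
        have e : t * s' * t⁻¹ * s'⁻¹ =
            t * ((s' * s') * (t⁻¹ * (s' * (t * s')))⁻¹) * t⁻¹ := by group
        rw [e]
        exact (Subgroup.mem_inf.1 (torus_conj P hsN
          (mul_mem (sq_mem_torus P hs'S) (inv_mem hT)))).1
      · rw [List.mem_singleton] at ht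
        exfalso
        apply hnot
        have : t = (s' * s * s') * (t⁻¹ * (s' * (s * s')))⁻¹ := by group
        rw [← ht, this]
        exact mul_mem hmem (inv_mem (Subgroup.mem_sup_left (Subgroup.mem_inf.1 hT).1))
    · right
      have hS : J = P.S := le_antisymm hJ (fun x hx => by
        by_contra h; exact hrest ⟨x, hx, h⟩)
      have htop : P.B ⊔ K = ⊤ := by rw [hBK, hS, parabolic_S]
      have hsur : Function.Surjective ((QuotientGroup.mk' K).comp P.B.subtype) := by
        intro q
        obtain ⟨g, rfl⟩ := QuotientGroup.mk'_surjective K q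
        obtain ⟨b, hb, k, hk, rfl⟩ := Subgroup.mem_sup_of_normal_right.1
          (show g ∈ P.B ⊔ K by rw [htop]; exact Subgroup.mem_top _)
        exact ⟨⟨b, hb⟩, by simp [QuotientGroup.eq, hk]⟩
      haveI := hsolv
      have hq : Group.IsSolvable (G ⧸ K) := Group.isSolvable_of_surjective hsur
      obtain ⟨n, hn⟩ := hq.solvable
      have hder : ∀ i, derivedSeries (G ⧸ K) i = ⊤ := by
        intro i
        rw [← map_derivedSeries_eq (QuotientGroup.mk'_surjective K) i]
        have : derivedSeries G i = ⊤ := by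
          induction i with
          | zero => rfl
          | succ i ih => rw [derivedSeries_succ, ih]; exact hperf
        rw [this]
        exact Subgroup.map_top_of_surjective _ (QuotientGroup.mk'_surjective K)
      rw [hder n] at hn
      refine top_le_iff.1 (fun g _ => ?_)
      have : QuotientGroup.mk' K g ∈ (⊥ : Subgroup (G ⧸ K)) := hn ▸ Subgroup.mem_top _
      simpa [Subgroup.mem_bot] using this
  · left
    have : P.B ⊔ K ≤ P.B := by
      rw [hBK]
      have : J = ∅ := Set.not_nonempty_iff_eq_empty.1 hne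
      rw [this]
      simp [BNPair.parabolic]
    exact le_bot_iff.1 (hcore ▸ Subgroup.normal_le_normalCore.2 (le_sup_right.trans this))

end Cfsg.Agent.BN
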