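import Cfsg.Agent.BN.Basic
import Cfsg.Agent.Cox.Exchange

/-!
The Weyl group of a (B, N)-pair as a Coxeter group.
-/

set_option autoImplicit false

namespace Cfsg.Agent.BN

variable {G : Type*} [Group G] (P : Cfsg.BNPair G)

/-- Exchange, with the deleted letter. -/
theorem exchange_delete {s : G} (hs : s ∈ P.S) : ∀ l : List G, ∀ n, IsWord P P.S l n →
    len P (s * n) < len P n →
    ∃ l₁ c l₂, l = l₁ ++ c :: l₂ ∧ IsWord P P.S (l₁ ++ l₂) (s * n) := by
  intro l
  induction l using List.reverseRecOn with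
  | nil =>
    intro n hl h
    have := len_le P hl
    simp at this
    omega
  | append_singleton l t ih =>
    intro n hl h
    have ht : t ∈ P.S := hl.1 t (by simp)
    have hsN := S_mem_N P hs
    have htN := S_mem_N P ht
    have hn := hl.mem_N P (le_refl _)
    have hw : IsWord P P.S l (n * t⁻¹) := by
      refine ⟨fun x hx => hl.1 x (by simp [hx]), ?_⟩
      have h2 := torus_conj P htN hl.2
      simpa [List.prod_append, mul_assoc, mul_inv_rev] using h2
    have hm := hw.mem_N P (le_refl _)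
    rcases Nat.lt_or_ge (len P (s * (n * t⁻¹))) (len P (n * t⁻¹)) with hlt | hge
    · obtain ⟨l₁, c, l₂, hl', hw'⟩ := ih _ hw hlt
      refine ⟨l₁, c, l₂ ++ [t], by rw [hl']; simp, ⟨fun x hx => hl.1 x (by
        rw [hl']; simp at hx ⊢; tauto), ?_⟩⟩
      have := torus_conj' P htN hw'.2
      simpa [List.prod_append, mul_assoc, mul_inv_rev] using this
    · refine ⟨l, t, [], rfl, ?_⟩
      rw [List.append_nil]
      obtain ⟨b, hb, hbn⟩ := step_down P hs hn h.le
      have hup := step_up P hs hm hge hb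
      have h3 : s * b * n ∈ cell P (s * (n * t⁻¹) * t) ∨ s * b * n ∈ cell P (s * (n * t⁻¹)) := by
        have e : s * b * n = s * b * (n * t⁻¹) * t := by group
        rw [e]
        exact right_step P ht (mul_mem hsN hm) hup
      rcases h3 with h3 | h3
      · exfalso
        have e : s * (n * t⁻¹) * t = s * n := by group
        rw [e] at h3
        have e2 : cell P n = cell P (s * n) := (cell_eq P hbn).symm.trans (cell_eq P h3)
        have := len_congr P hn (torus_of_cell_eq P hn (mul_mem hsN hn) e2)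
        omega
      · have e2 : cell P n = cell P (s * (n * t⁻¹)) := (cell_eq P hbn).symm.trans (cell_eq P h3)
        have hT := torus_of_cell_eq P hn (mul_mem hsN hm) e2
        have hT' := torus_conj P (mul_mem hsN hn) (inv_mem hT)
        have e4 : s * n = (s * n * (n⁻¹ * (s * (n * t⁻¹)))⁻¹ * (s * n)⁻¹) *
            ((s * s) * (n * t⁻¹)) := by group
        rw [e4, ← mul_assoc]
        exact hw.torus_mul P (le_refl _) (mul_mem hT' (sq_mem_torus P hs))

variable [hN : ((P.B ⊓ P.N).subgroupOf P.N).Normal]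

/-- The Weyl group. -/
abbrev Weyl := P.N ⧸ (P.B ⊓ P.N).subgroupOf P.N

theorem weyl_mk_eq {a b : P.N} :
    (QuotientGroup.mk a : Weyl P) = QuotientGroup.mk b ↔ (a : G)⁻¹ * b ∈ torus P := by
  rw [QuotientGroup.eq, Subgroup.mem_subgroupOf]
  simp

/-- The distinguished generators. -/
def weylGen (s : P.S) : Weyl P := QuotientGroup.mk (⟨(s : G), P.subset s.2⟩ : P.N)

theorem weylGen_prod (l : List P.S) :
    (l.map (weylGen P)).prod =
      QuotientGroup.mk (⟨(l.map Subtype.val).prod, prod_mem_N P (by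
        intro x hx
        obtain ⟨s, -, rfl⟩ := List.mem_map.1 hx
        exact s.2)⟩ : P.N) := by
  induction l with
  | nil => rfl
  | cons s l ih =>
    simp only [List.map_cons, List.prod_cons, ih, weylGen, ← QuotientGroup.mk_mul]
    rfl

theorem isWord_iff (l : List P.S) (n : P.N) :
    IsWord P P.S (l.map Subtype.val) n ↔ (l.map (weylGen P)).prod = QuotientGroup.mk n := by
  rw [weylGen_prod, weyl_mk_eq]
  exact ⟨fun h => h.2, fun h => ⟨fun x hx => by
    obtain ⟨s, -, rfl⟩ := List.mem_map.1 hx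
    exact s.2, h⟩⟩

/-- The length on the Weyl group. -/
noncomputable def weylLen (w : Weyl P) : ℕ := len P (w.out : G)

theorem weylLen_mk (n : P.N) : weylLen P (QuotientGroup.mk n) = len P (n : G) :=
  len_congr P n.2 ((weyl_mk_eq P).1 (QuotientGroup.out_eq' _).symm)

theorem lift_list {l : List G} (hl : ∀ x ∈ l, x ∈ P.S) :
    ∃ l' : List P.S, l'.map Subtype.val = l :=
  ⟨l.pmap Subtype.mk hl, by simp [List.map_pmap]⟩

/-- The exchange data of the Weyl group. -/
noncomputable def weylData : Cox.ExchangeData (Weyl P) P.S where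
  gen := weylGen P
  len := weylLen P
  invol := fun s => by
    rw [weylGen, ← QuotientGroup.mk_mul, ← QuotientGroup.mk_one, weyl_mk_eq]
    simpa using inv_mem (sq_mem_torus P s.2)
  inj := fun s t h => Subtype.ext
    (P.inj s s.2 t t.2 (Subgroup.mem_inf.1 ((weyl_mk_eq P).1 h)).1)
  len_le := fun l => by
    rw [weylGen_prod, weylLen_mk]
    simpa using len_le P ((isWord_iff P l _).2 (weylGen_prod P l))
  exists_reduced := fun w => by
    obtain ⟨n, rfl⟩ := QuotientGroup.mk_surjective w
    obtain ⟨l, hl, hlen⟩ := exists_reduced P n.2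
    obtain ⟨l', rfl⟩ := lift_list P hl.1
    exact ⟨l', (isWord_iff P l' n).1 hl, by rw [weylLen_mk, ← hlen, List.length_map]⟩
  len_ne := fun s w => by
    obtain ⟨n, rfl⟩ := QuotientGroup.mk_surjective w
    rw [weylGen, ← QuotientGroup.mk_mul, weylLen_mk, weylLen_mk]
    exact len_ne P s.2 n.2
  exchange := fun s l h => by
    have hw := (isWord_iff P l _).2 (weylGen_prod P l)
    rw [weylGen_prod] at h ⊢
    rw [weylGen, ← QuotientGroup.mk_mul, weylLen_mk, weylLen_mk] at h
    obtain ⟨m₁, c, m₂, hm, hw'⟩ := exchange_delete P s.2 _ _ hw h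
    obtain ⟨l₁, lr, rfl, h1, h2⟩ := List.map_eq_append_iff.1 hm
    obtain ⟨c', l₂, rfl, -, h3⟩ := List.map_eq_cons_iff.1 h2
    refine ⟨l₁, c', l₂, rfl, ?_⟩
    rw [← h1, ← h3, ← List.map_append] at hw'
    rw [weylGen, ← QuotientGroup.mk_mul]
    exact ((isWord_iff P (l₁ ++ l₂) (⟨(s : G), P.subset s.2⟩ * ⟨_, _⟩)).1 hw').symm

end Cfsg.Agent.BN
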